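import Cfsg.Agent.Lib.ToddCox.L37O.OrbD
set_option autoImplicit false
set_option maxRecDepth 100000
namespace Cfsg.Agent.Lib.ToddCox.L37O
open Cfsg.Agent.Lib.ToddCox.L37T in
theorem lv0_0 : allBits (fun k => bif Nat.blt k 57 then chkOrbPos Cfsg.Agent.Lib.ToddCox.L37T.tab L 0 0 57 57 (fun q => orbR (Nat.add 0 q)) k else true) 11 0 = true := by decide +kernel
theorem fx0 : ∀ w ∈ L.drop 8, tabW Cfsg.Agent.Lib.ToddCox.L37T.tab w 0 = 0 := by decide +kernel
theorem lv1_0 : allBits (fun k => bif Nat.blt k 56 then chkOrbPos Cfsg.Agent.Lib.ToddCox.L37T.tab L 8 1 56 57 (fun q => orbR (Nat.add 57 q)) k else true) 11 0 = true := by decide +kernel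
theorem fx1 : ∀ w ∈ L.drop 15, tabW Cfsg.Agent.Lib.ToddCox.L37T.tab w 1 = 1 := by decide +kernel
theorem lv2_0 : allBits (fun k => bif Nat.blt k 49 then chkOrbPos Cfsg.Agent.Lib.ToddCox.L37T.tab L 15 3 49 57 (fun q => orbR (Nat.add 113 q)) k else true) 11 0 = true := by decide +kernel
theorem fx2 : ∀ w ∈ L.drop 19, tabW Cfsg.Agent.Lib.ToddCox.L37T.tab w 3 = 3 := by decide +kernel
theorem lv3_0 : allBits (fun k => bif Nat.blt k 12 then chkOrbPos Cfsg.Agent.Lib.ToddCox.L37T.tab L 19 5 12 57 (fun q => orbR (Nat.add 162 q)) k else true) 11 0 = true := by decide +kernel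
theorem fx3 : ∀ w ∈ L.drop 22, tabW Cfsg.Agent.Lib.ToddCox.L37T.tab w 5 = 5 := by decide +kernel
end Cfsg.Agent.Lib.ToddCox.L37O
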